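import Cfsg.Agent.Base
import Cfsg.Agent.H32.QuasiPrim
import Cfsg.Agent.H32.Cover
import Cfsg.Agent.H28.Degree

/-! Berger's theorem: quasi-primitive characters of solvable groups are primitive. -/

set_option autoImplicit false

open Cfsg H28 H33

namespace H32

variable {G : Type*} [Group G]

theorem res_eq_index_mul_of_homogeneous [Fintype G] {L H : Subgroup G} [L.Normal] (hLH : L ≤ H)
    {ψ : H → ℂ} (hψ : IsIrrCharacter H ψ) (hind : IsIrrCharacter G (indFun H ψ)) {φ : L → ℂ}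
    (hφ : IsIrrCharacter L φ) {e : ℂ} (he : (fun x : L => indFun H ψ x) = e • φ) [Fintype L] :
    classInner (fun x : L => ψ ⟨x, hLH x.2⟩) φ ≠ 0 ∧
      ∀ x : L, indFun H ψ x = H.index * ψ ⟨x, hLH x.2⟩ := by
  classical
  have h1 : classInner (fun h : H => indFun H ψ h) ψ ≠ 0 := by
    rw [← classInner_indFun_right H ψ hind.isClassFunction, hind.classInner_self]
    exact one_ne_zero
  have hψL := isCharacter_res_le hLH hψ.isCharacter
  have h2 : ∀ θ, IsIrrCharacter L θ → classInner (fun x : L => ψ ⟨x, hLH x.2⟩) θ ≠ 0 → θ = φ := by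
    intro θ hθ h
    have h3 := classInner_res_le_of_constituent hLH hind.isCharacter hψ h1 hθ.isCharacter
    obtain ⟨n, hn⟩ := hψL.classInner_nat hθ.isCharacter
    refine (eq_of_homogeneous hφ hθ he fun h0 => h ?_).symm
    rw [h0, hn] at h3
    have : n = 0 := by simpa using h3
    rw [hn, this, Nat.cast_zero]
  have h3 := hψL.isClassFunction.eq_smul_of_unique hφ h2
  have h4 : ψ 1 = classInner (fun x : L => ψ ⟨x, hLH x.2⟩) φ * φ 1 := congrFun h3 1
  have h5 : indFun H ψ 1 = e * φ 1 := congrFun he 1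
  rw [indFun_apply_one, h4, ← mul_assoc, mul_left_inj' hφ.apply_one_ne_zero] at h5
  refine ⟨fun h => hψ.apply_one_ne_zero (by rw [h4, h, zero_mul]), fun x => ?_⟩
  have h6 : indFun H ψ x = e * φ x := congrFun he x
  have h7 : ψ ⟨x, hLH x.2⟩ = classInner (fun x : L => ψ ⟨x, hLH x.2⟩) φ * φ x := congrFun h3 x
  rw [h6, h7, ← h5, mul_assoc]

/-- the key step: a character induced from a maximal subgroup whose restriction to the core is
homogeneous is induced from a proper subgroup with a larger core -/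
theorem exists_induced_larger_core [Fintype G] [Group.IsSolvable G] {H : Subgroup G}
    (hH : IsCoatom H) {ψ : H → ℂ} (hψ : IsIrrCharacter H ψ)
    (hind : IsIrrCharacter G (indFun H ψ)) {φ : H.normalCore → ℂ} (hφ : IsIrrCharacter _ φ)
    {e : ℂ} (he : (fun x : H.normalCore => indFun H ψ x) = e • φ) :
    ∃ (T : Subgroup G) (η : T → ℂ), T ≠ ⊤ ∧ IsCharacter T η ∧ indFun T η = indFun H ψ ∧
      H.normalCore < T.normalCore := by
  classical
  let L := H.normalCore
  have hLH : L ≤ H := H.normalCore_le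
  have he0 : e ≠ 0 := fun h => hind.apply_one_ne_zero (by simpa [h] using congrFun he 1)
  obtain ⟨hc, hres⟩ := res_eq_index_mul_of_homogeneous hLH hψ hind hφ he
  obtain ⟨K, hK, hLK, -, hcK⟩ := H2.exists_chief_factor_above (lt_of_le_of_lt hLH hH.lt_top)
  obtain ⟨p, j, hp, -, -, -, hKp⟩ := exists_prime_of_chief inferInstance hLK hcK
  have := Fact.mk hp
  have hKH : K ⊓ H ≤ L := inf_le_normalCore_of_isNilpotent hH K hKp.isNilpotent
  have hKH' := exists_mul_of_sup_eq_top (sup_eq_top_of_not_le_normalCore hH K hLK.not_ge)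
  have hφ' := isIrrCharacter_subgroupOf hLH hφ
  obtain ⟨C⟩ := nonempty_cover hφ' (by
    rw [inertia_subgroupOf hLH, inertia_eq_top_of_homogeneous hind.isClassFunction he0 he,
      Subgroup.top_subgroupOf])
  obtain ⟨β, hβ, hβk, hβψ⟩ := C.exists_factor hφ' hψ (by rwa [classInner_res_subgroupOf hLH])
  obtain ⟨β', hβ', hβ''⟩ := hβ.exists_quotient _ hβk
  let σ : C.Γ ⧸ C.ν.range →* G ⧸ K := QuotientGroup.lift _
    ((QuotientGroup.mk' K).comp (H.subtype.comp C.π)) (by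
      rintro _ ⟨n, rfl⟩
      rw [MonoidHom.mem_ker, MonoidHom.comp_apply, MonoidHom.comp_apply, C.π_ν,
        QuotientGroup.mk'_apply, QuotientGroup.eq_one_iff]
      exact hLK.le n.2)
  have hσ : ∀ γ : C.Γ, σ γ = ((C.π γ : G) : G ⧸ K) := fun _ => rfl
  let P : Subgroup (G × (C.Γ ⧸ C.ν.range)) :=
    ((QuotientGroup.mk' K).comp (MonoidHom.fst _ _)).eqLocus (σ.comp (MonoidHom.snd _ _))
  have hP : ∀ x, x ∈ P ↔ (x.1 : G ⧸ K) = σ x.2 := fun _ => Iff.rfl
  have : Fintype P := Fintype.ofFinite P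
  let f : P →* G := (MonoidHom.fst _ _).comp P.subtype
  let s : P →* C.Γ ⧸ C.ν.range := (MonoidHom.snd _ _).comp P.subtype
  have hf : Function.Surjective f := fun g => by
    obtain ⟨k, hk, h, hh, rfl⟩ := hKH' g
    obtain ⟨γ, hγ⟩ := C.π_surj ⟨h, hh⟩
    refine ⟨⟨(k * h, γ), (hP _).2 ?_⟩, rfl⟩
    rw [hσ, hγ, QuotientGroup.mk_mul, (QuotientGroup.eq_one_iff k).2 hk, one_mul]
  let ι₀ : C.Γ →* P := ((H.subtype.comp C.π).prod (QuotientGroup.mk' _)).codRestrict P
    fun γ => (hP _).2 rfl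
  let ι : C.Γ →* H.comap f := ι₀.codRestrict _ fun γ => (C.π γ).2
  have hι : Function.Bijective ι := by
    constructor
    · rw [injective_iff_map_eq_one]
      intro γ hγ
      have h1 : ((C.π γ : G), (γ : C.Γ ⧸ C.ν.range)) = 1 :=
        congrArg (fun x : H.comap f => (x.1.1 : G × (C.Γ ⧸ C.ν.range))) hγ
      rw [Prod.mk_eq_one, QuotientGroup.eq_one_iff] at h1
      exact (Subgroup.eq_bot_iff_forall _).1 C.ker_inf_range γ ⟨Subtype.ext h1.1, h1.2⟩
    · rintro ⟨⟨⟨h, x⟩, hx⟩, hh⟩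
      obtain ⟨γ, rfl⟩ := QuotientGroup.mk_surjective x
      have h1 : h ∈ H := hh
      have h2 : (h : G ⧸ K) = ((C.π γ : G) : G ⧸ K) := (hP _).1 hx
      rw [eq_comm, QuotientGroup.eq] at h2
      have h3 : (C.π γ)⁻¹ * ⟨h, h1⟩ ∈ L.subgroupOf H := hKH ⟨h2, H.mul_mem (H.inv_mem (C.π γ).2) h1⟩
      refine ⟨γ * C.ν ⟨_, h3⟩, Subtype.ext (Subtype.ext (Prod.ext ?_ ?_))⟩
      · change (C.π (γ * C.ν ⟨_, h3⟩) : G) = h
        rw [map_mul, C.π_ν]
        simp
      · change ((γ * C.ν ⟨_, h3⟩ : C.Γ) : C.Γ ⧸ C.ν.range) = γ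
        exact QuotientGroup.mk_mul_of_mem _ ⟨_, rfl⟩
  let E := MulEquiv.ofBijective ι hι
  let ϑ : H.comap f → ℂ := fun t => C.th (E.symm t)
  have hϑ : IsIrrCharacter _ ϑ := C.th_irr.comp_mulEquiv E.symm
  have hϑι : ∀ γ, ϑ (ι γ) = C.th γ := fun γ => congrArg C.th (E.symm_apply_apply γ)
  let b : P → ℂ := fun x => β' (s x)
  have hb : IsCharacter P b := hβ'.isCharacter.comp s
  have hbι : ∀ γ, b (ι γ) = β γ := fun γ => hβ'' γ
  have h1 : ∀ t : H.comap f, ψ ⟨f t, t.2⟩ = ϑ t * b t := fun t => by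
    obtain ⟨γ, rfl⟩ := hι.2 t
    rw [hϑι, hbι, mul_comm, ← hβψ]
    rfl
  have h2 : indFun (H.comap f) ϑ * b = fun x => indFun H ψ (f x) := by
    rw [← indFun_mul_res _ _ hb.isClassFunction]
    funext x
    rw [← indFun_comap f hf]
    simp only [h1]
  have hζ : IsIrrCharacter P (indFun (H.comap f) ϑ) :=
    isIrrCharacter_of_mul hb (isCharacter_indFun _ hϑ.isCharacter) (by
      rw [mul_comm, h2]; exact hind.comp_surjective f hf)
  have hLH' : L.comap f ≤ H.comap f := Subgroup.comap_mono hLH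
  have hϑL : IsIrrCharacter (L.comap f) fun x : L.comap f => ϑ ⟨x, hLH' x.2⟩ := by
    refine (isCharacter_res_le hLH' hϑ.isCharacter).irr_of_comp
      ((ι₀.comp C.ν).codRestrict _ fun n => ?_) ?_
    · change (C.π (C.ν n) : G) ∈ L
      rw [C.π_ν]; exact n.2
    · convert hφ' using 2 with n
      exact (hϑι _).trans (C.th_ν n)
  obtain ⟨M, hM, hLM, h3⟩ := exists_not_homogeneous_of_isCoatom hLH'
    (Subgroup.isCoatom_comap_of_surjective hf hH) (isSolvable_quotient_comap f inferInstance) hϑ hϑL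
    hζ
  obtain ⟨T, η, hMT, hT, hη, h4⟩ := exists_induced_of_not_homogeneous hζ h3
  obtain ⟨hk, η', hη', h5, -⟩ := exists_indFun_descend f hf hind.apply_one_ne_zero
    (hη.isCharacter.mul (hb.restrict T)) (by
      rw [← h2, ← h4, ← indFun_mul_res _ _ hb.isClassFunction]; rfl)
  have : (M.map f).Normal := hM.map f hf
  have h6 : M.map f ≤ (T.map f).normalCore :=
    Subgroup.normal_le_normalCore.2 (Subgroup.map_mono hMT)
  have h7 : L ≤ M.map f :=
    (Subgroup.map_comap_eq_self_of_surjective hf L).ge.trans (Subgroup.map_mono hLM)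
  refine ⟨T.map f, η', fun h => hT ?_, hη', h5, lt_of_lt_of_le (lt_of_le_of_ne h7 fun h => ?_) h6⟩
  · rw [← Subgroup.comap_map_eq_self hk, h, Subgroup.comap_top]
  · have h8 : M = L.comap f := le_antisymm (Subgroup.map_le_iff_le_comap.1 h.ge) hLM
    subst h8
    refine h3 ⟨_, H.index, hϑL, funext fun x => ?_⟩
    have h9 : b x ≠ 0 := by
      obtain ⟨γ, hγ⟩ := hι.2 ⟨x, hLH' x.2⟩
      have h10 : (ι γ : P) = x := congrArg Subtype.val hγ
      have h11 : C.π γ ∈ L.subgroupOf H := by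
        have : f (ι γ) ∈ L := h10 ▸ x.2
        exact this
      obtain ⟨a, n, rfl⟩ := C.exists_eq_mul_of_mem h11
      rw [← h10, hbι, hβ.isClassFunction.apply_mul_of_mem_charKer (hβk ⟨n, rfl⟩), ← norm_ne_zero_iff,
        hβ.mem_charCenter.1 (hβ.center_le_charCenter (C.ker_le_center a.2)),
        hβ.isCharacter.re_apply_one]
      exact_mod_cast hβ.charDegree_pos.ne'
    have h10 : indFun (H.comap f) ϑ x * b x = indFun H ψ (f x) := congrFun h2 x
    have h11 := hres ⟨f x, x.2⟩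
    have h12 := h1 ⟨x, hLH' x.2⟩
    refine mul_right_cancel₀ h9 ?_
    rw [h10, h11, Pi.smul_apply, smul_eq_mul, mul_assoc, ← h12]

/-- Berger's theorem -/
theorem indFun_ne_of_quasiprimitive [Fintype G] [Group.IsSolvable G] {χ : G → ℂ}
    (hχ : IsIrrCharacter G χ)
    (hq : ∀ N : Subgroup G, N.Normal → ∃ (ϑ : N → ℂ) (e : ℕ), IsIrrCharacter N ϑ ∧
      (fun n : N => χ n) = (e : ℂ) • ϑ) {K : Subgroup G} (hK : K ≠ ⊤) {ψ : K → ℂ}
    (hψ : IsCharacter K ψ) : indFun K ψ ≠ χ := by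
  classical
  intro h
  obtain ⟨L, ⟨H₀, η, h1, h2, h3, rfl⟩, hmax⟩ := H2.exists_maximal_subgroup
    (fun L : Subgroup G => ∃ (T : Subgroup G) (η : T → ℂ), T ≠ ⊤ ∧ IsCharacter T η ∧
      indFun T η = χ ∧ T.normalCore = L) ⟨_, K, ψ, hK, hψ, h, rfl⟩
  obtain ⟨H, hH, h4⟩ := (eq_top_or_exists_le_coatom H₀).resolve_left h1
  have h5 := indFun_subgroupOf H₀ H h4 η
  rw [h3] at h5
  have h6 := isCharacter_indFun _ (h2.comp (Subgroup.subgroupOfEquivOfLe h4).toMonoidHom)
  have h7 := isIrrCharacter_of_indFun h6 (h5 ▸ hχ)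
  obtain ⟨φ, e, hφ, he⟩ := hq H.normalCore inferInstance
  rw [← h5] at he hχ
  obtain ⟨T, η', h8, h9, h10, h11⟩ := exists_induced_larger_core hH h7 hχ hφ he
  have h12 := (Subgroup.normalCore_mono h4).trans_lt h11
  exact h12.ne' (hmax _ ⟨T, η', h8, h9, h10.trans h5, rfl⟩ h12.le)

end H32
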