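import Cfsg.Agent.Base
import Cfsg.Agent.H28.CharKer
import Cfsg.Agent.H32.Clifford

/-! Characters of Frobenius groups: induction from the kernel. -/

set_option autoImplicit false

open Cfsg H28 H33
open scoped ComplexConjugate

namespace H32

variable {G : Type*} [Group G] [Finite G] {N : Subgroup G} [hN : N.Normal]

/-- the number of irreducible characters of `N` fixed by `g`, by column orthogonality -/
theorem sum_classInner_cj [Fintype N] (g : G) :
    ∑ χ : IrrCharacter N, classInner (cj g χ.1) χ.1 = (Nat.card N : ℂ)⁻¹ *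
      ∑ n : N, (Nat.card {x : N // x * n * x⁻¹ = MulAut.conjNormal g n} : ℂ) := by
  simp only [classInner_def]
  rw [← Finset.mul_sum, Finset.sum_comm]
  congr 1
  exact Finset.sum_congr rfl fun n _ => column_orthogonality_card _ n

/-- If `g` fixes no non-identity class of `N`, it fixes no non-principal irreducible character. -/
theorem eq_one_of_mem_inertia {g : G} (hg : ∀ n x : N, (x : G) * n * (x : G)⁻¹ = g * n * g⁻¹ → n = 1)
    {τ : N → ℂ} (hτ : IsIrrCharacter N τ) (h : g ∈ inertia τ) : τ = fun _ => 1 := by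
  classical
  have : Fintype N := Fintype.ofFinite N
  have h1 := sum_classInner_cj (N := N) g
  have h0 : Nat.card {x : N // x * 1 * x⁻¹ = MulAut.conjNormal g (1 : N)} = Nat.card N :=
    Nat.card_congr (Equiv.subtypeUnivEquiv (by simp))
  rw [Finset.sum_eq_single (1 : N) (fun n _ hn => by
    rw [Nat.cast_eq_zero, Nat.card_eq_zero]
    exact Or.inl ⟨fun x => hn (hg n x.1 (by simpa using congrArg Subtype.val x.2))⟩) (by simp),
    h0, inv_mul_cancel₀ (card_ne_zero' N)] at h1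
  simp only [fun χ : IrrCharacter N => (isIrrCharacter_cj χ.2 g).classInner_eq χ.2] at h1
  rw [Finset.sum_boole, Nat.cast_eq_one, Finset.card_eq_one] at h1
  obtain ⟨a, ha⟩ := h1
  have h2 : (⟨τ, hτ⟩ : IrrCharacter N) = a :=
    Finset.mem_singleton.1 (ha ▸ Finset.mem_filter.2 ⟨Finset.mem_univ _, h⟩)
  have h3 : (⟨_, isIrrCharacter_one⟩ : IrrCharacter N) = a :=
    Finset.mem_singleton.1 (ha ▸ Finset.mem_filter.2 ⟨Finset.mem_univ _, rfl⟩)
  exact congrArg Subtype.val (h2.trans h3.symm)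

theorem inertia_le_of_centralizer_le
    (hC : ∀ n ∈ N, n ≠ 1 → Subgroup.centralizer ({n} : Set G) ≤ N) {τ : N → ℂ}
    (hτ : IsIrrCharacter N τ) (h1 : τ ≠ fun _ => 1) : inertia τ ≤ N := by
  intro g hg
  by_contra hgN
  refine h1 (eq_one_of_mem_inertia (fun n x hx => ?_) hτ hg)
  by_contra hn
  have : (x : G)⁻¹ * g ∈ N := hC n n.2 (fun h => hn (Subtype.ext h))
    (mem_centralizer_singleton_conj.2 (by
      rw [mul_inv_rev, inv_inv, mul_assoc, mul_assoc, ← mul_assoc g, ← mul_assoc (g * n), ← hx]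
      simp [mul_assoc]))
  exact hgN (by simpa using N.mul_mem x.2 this)

omit [Finite G] in
/-- If `C_G(n) ≤ N` for all `1 ≠ n ∈ N`, non-principal irreducible characters of `N` induce
irreducibly. -/
theorem isIrrCharacter_indFun_of_centralizer_le [Fintype G]
    (hC : ∀ n ∈ N, n ≠ 1 → Subgroup.centralizer ({n} : Set G) ≤ N) {τ : N → ℂ}
    (hτ : IsIrrCharacter N τ) (h1 : τ ≠ fun _ => 1) : IsIrrCharacter G (indFun N τ) :=
  (isIrrCharacter_indFun_iff hτ).2 (inertia_le_of_centralizer_le hC hτ h1)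

omit [Finite G] in
/-- If `C_G(n) ≤ N` for all `1 ≠ n ∈ N`, every irreducible character of `G` that does not have
`N` in its kernel is induced from `N`. -/
theorem exists_eq_indFun_of_centralizer_le [Fintype G]
    (hC : ∀ n ∈ N, n ≠ 1 → Subgroup.centralizer ({n} : Set G) ≤ N) {χ : G → ℂ}
    (hχ : IsIrrCharacter G χ) (hk : ¬ N ≤ charKer χ) :
    ∃ τ : N → ℂ, IsIrrCharacter N τ ∧ τ ≠ (fun _ => 1) ∧ indFun N τ = χ := by
  have : Fintype N := Fintype.ofFinite N
  obtain ⟨τ, hτ, hc⟩ := exists_constituent_res (H := N) hχ.isCharacter hχ.apply_one_ne_zero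
  have h1 : τ ≠ fun _ => 1 := by
    rintro rfl
    exact hk (hχ.le_charKer_of_classInner_ne_zero N hc)
  refine ⟨τ, hτ, h1, ((hχ.eq_of_classInner_ne_zero
    (isIrrCharacter_indFun_of_centralizer_le hC hτ h1) ?_)).symm⟩
  rwa [classInner_indFun_right _ _ hχ.isClassFunction]

/-- in `G = N H` with `H` acting fixed-point-freely on `N`, `C_G(n) ≤ N` for `1 ≠ n ∈ N` -/
theorem centralizer_le_of_fpf {H : Subgroup G} (hNH : N ⊔ H = ⊤)
    (hfpf : ∀ h ∈ H, h ≠ 1 → ∀ k ∈ N, h * k = k * h → k = 1) :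
    ∀ n ∈ N, n ≠ 1 → Subgroup.centralizer ({n} : Set G) ≤ N := by
  intro n hn hn1 g hg
  have hg' : g ∈ (N ⊔ H : Subgroup G) := hNH ▸ Subgroup.mem_top g
  rw [← SetLike.mem_coe, Subgroup.normal_mul] at hg'
  obtain ⟨k, hk, h, hh, rfl⟩ := hg'
  by_cases h1 : h = 1
  · simpa [h1] using hk
  exfalso
  let f : N → N := fun x => ⟨x * (h * x⁻¹ * h⁻¹), N.mul_mem x.2 (hN.conj_mem _ (N.inv_mem x.2) h)⟩
  have hf : Function.Injective f := fun x y hxy => by
    have e : (x : G) * (h * x⁻¹ * h⁻¹) = y * (h * y⁻¹ * h⁻¹) := congrArg Subtype.val hxy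
    have := hfpf h hh h1 ((y : G)⁻¹ * x) (N.mul_mem (N.inv_mem y.2) x.2) (by
      have e2 : (x : G) * h * x⁻¹ = y * h * y⁻¹ := by simpa [← mul_assoc] using e
      calc h * ((y : G)⁻¹ * x) = (y : G)⁻¹ * (y * h * y⁻¹) * x := by simp [mul_assoc]
        _ = (y : G)⁻¹ * x * h := by rw [← e2]; simp [mul_assoc])
    exact Subtype.ext (inv_mul_eq_one.1 this).symm
  obtain ⟨x, hx⟩ := Finite.injective_iff_surjective.1 hf ⟨k, hk⟩
  have hx' : k = x * (h * x⁻¹ * h⁻¹) := (congrArg Subtype.val hx).symm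
  have hc := mem_centralizer_singleton.1 hg
  simp only [hx'] at hc
  have := hfpf h hh h1 ((x : G)⁻¹ * n * x) (by simpa using hN.conj_mem n hn (x : G)⁻¹) (by
    calc h * ((x : G)⁻¹ * n * x) = (x : G)⁻¹ * (x * (h * x⁻¹ * h⁻¹) * h * n) * x := by
          simp [mul_assoc]
      _ = (x : G)⁻¹ * n * x * h := by rw [hc]; simp [mul_assoc])
  exact hn1 (by simpa [mul_assoc, inv_mul_eq_iff_eq_mul] using this)

end H32
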