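/- C7-O4 tower: centralisers of the involutions of the factors. -/
import Cfsg.Agent.H60.WrO4Kit

set_option autoImplicit false

namespace H32.O4
open H60.Wr Cfsg Cfsg.Geo Matrix H19 Module
open scoped MatrixGroups commutatorElement

universe u

variable {F : Type u} [Field F] {t : ℕ} {B : Frm (Fin 4) F} {G : Subgroup (GG 4 t F)}
  {R : Finset (Fin t)} {i : Fin t} {g : GG 4 t F} {a b c d w w' v v' : Fin 4 → F}

theorem cz_key (C : GC B G R) (K : KP B G R) (hi : i ∈ R) (O : Ob B a b c d) (hg : g ∈ G)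
    (hp : cj g (em i (pj B c d)) = em i (pj B c d)) {s : GL (Fin 4) F} (hs : s ∈ G0 B) {ε : F}
    (hε : ε = 1 ∨ ε = -1) (h1 : (s : Mk 4 F) * pj B c d = ε • pj B c d)
    (h2 : pj B c d * (s : Mk 4 F) = ε • pj B c d) :
    InA i ((g * emG i s * g⁻¹ : GG 4 t F) : EE 4 t F) ∧
      ((g * emG i s * g⁻¹ : GG 4 t F) : EE 4 t F) * em i (pj B c d) = ε • em i (pj B c d) := by
  have e1 : ((g * emG i s * g⁻¹ : GG 4 t F) : EE 4 t F) * em i (pj B c d) =
      ε • em i (pj B c d) := by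
    rw [← cj_coe, coe_emG]
    conv_lhs => rw [← hp, ← map_mul, ← map_mul, h1, map_smul, map_smul, hp]
  have e2 : em i (pj B c d) * ((g * emG i s * g⁻¹ : GG 4 t F) : EE 4 t F) =
      ε • em i (pj B c d) := by
    rw [← cj_coe, coe_emG]
    conv_lhs => rw [← hp, ← map_mul, ← map_mul, h2, map_smul, map_smul, hp]
  refine ⟨K i hi a b c d O _ (G.mul_mem (G.mul_mem hg (C.mem i hi s hs)) (G.inv_mem hg))
    (e1.trans e2.symm) ?_, e1⟩
  rcases hε with rfl | rfl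
  · exact Or.inl (by rw [e1, one_smul])
  · exact Or.inr (by rw [e1, neg_one_smul])

theorem cz_p (H : O4 B) {ξ : GL (Fin 4) F} {p : Mk 4 F}
    (h : (ξ : Mk 4 F) * (ξ : Mk 4 F) = (2 : F) • p - 1)
    (hc : g * emG i (ξ * ξ) = emG i (ξ * ξ) * g) : cj g (em i p) = em i p := by
  have e : cj g (em i ((2 : F) • p - 1)) = em i ((2 : F) • p - 1) := by
    rw [cj_eq_iff, ← h, ← Units.val_mul, ← coe_emG, ← Units.val_mul, hc, Units.val_mul]
  simp only [map_sub, map_smul, map_one, sub_left_inj] at e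
  exact smul_right_injective _ H.two e

theorem cz_nx (C : GC B G R) (K : KP B G R) : NX B G R := by
  intro i hi ξ hξ g hg hc
  have H : O4 B := C.f.toO4
  obtain ⟨a, b, c, d, ε, O, -, hε, -, h2, h3, h4⟩ := hξ.ex
  obtain ⟨hA, e1⟩ := cz_key C K hi O hg (cz_p H h2 hc) hξ.1 hε h3 h4
  obtain ⟨s, hs⟩ := hA.exists_emG
  have hsI : s ∈ B.Iso := iso_of_em (i := i) (by
    rw [← hs]
    exact C.le (G.mul_mem (G.mul_mem hg (C.mem i hi ξ hξ.1)) (G.inv_mem hg)))
  have hss : s * s = ξ * ξ := emG_inj4 (t := t) i (by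
    rw [map_mul, ← hs]
    calc g * emG i ξ * g⁻¹ * (g * emG i ξ * g⁻¹) = g * (emG i ξ * emG i ξ) * g⁻¹ := by group
      _ = emG i (ξ * ξ) := by rw [← map_mul, hc, mul_inv_cancel_right])
  rw [hs, coe_emG, ← map_mul, ← map_smul, em_inj] at e1
  have e2 : (1 : Mk 4 F) + (ξ : Mk 4 F) * (ξ : Mk 4 F) = (2 : F) • pj B c d := by
    rw [h2, add_sub_cancel]
  rcases C.f.x2 ξ hξ s hsI hss (by rw [e2, mul_smul_comm, mul_smul_comm, e1, h3]) with h | h
  · exact Or.inl (by rw [hs, h])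
  · exact Or.inr (by rw [hs, h, map_inv])

theorem hh_pj (H : O4 B) (P : Fr4 B w w' v v') (l : F) :
    hh B w w' l * pj B v v' = pj B v v' ∧ pj B v v' * hh B w w' l = pj B v v' := by
  have := P.vv
  have := P.uu
  constructor <;> apply P.mat <;>
    simp [← mulVec_mulVec, hh_mulVec, pj_mulVec, P.hw.2, P.hw'.2, P.ww, P.w'w H, P.vw, P.vw', P.uw,
      P.uw', P.wv, P.w'v, P.wu, P.w'u, P.vu, P.uv, mulVec_add, mulVec_smul, *]

theorem hh_poly (H : O4 B) (P : Fr4 B w w' v v') (l : F) :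
    (hh B w w' l - l⁻¹ • 1) * (hh B w w' l - 1) = ((l - l⁻¹) * (l - 1)) • rf B w w' := by
  apply P.mat <;>
    simp [← mulVec_mulVec, sub_mulVec, smul_mulVec, hh_mulVec, rf_mulVec, P.hw.2, P.hw'.2, P.ww,
      P.w'w H, P.vw, P.vw', P.uw, P.uw', mulVec_smul] <;> first | module | (right; module)

theorem cz_big (C : GC B G R) (K : KP B G R) {μ : F} (h0 : μ ≠ 0) (h1 : μ ^ 2 ≠ 1) :
    CZ B G R := by
  intro i hi ξ hξ g hg hc
  have H : O4 B := C.f.toO4
  obtain ⟨a, b, c, d, ε, O, -, -, -, h2, -, -⟩ := hξ.ex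
  have hp := cz_p H h2 hc
  obtain ⟨w, w', v, v', P, h3⟩ := C.f.x5 a b c d O
  have hp' : cj g (em i (pj B v v')) = em i (pj B v v') := by
    rcases h3 with h3 | h3
    · rw [← h3, O.eq]
      simp only [map_sub, map_one, hp]
    · rw [← h3, hp]
  obtain ⟨e1, e2⟩ := hh_pj H P μ
  have hA : InA i (cj g (em i (hh B w w' μ))) := by
    rcases C.f.torpm w P.hw w' P.hw' P.ww μ h0 with ⟨s, hs, e⟩ | ⟨s, hs, e⟩
    · have := (cz_key C K hi (P.ob H) hg hp' hs (Or.inl rfl) (by rw [e, e1, one_smul])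
        (by rw [e, e2, one_smul])).1
      rwa [← cj_coe, coe_emG, e] at this
    · have := (cz_key C K hi (P.ob H) hg hp' hs (Or.inr rfl)
        (by rw [e, neg_mul, e1, neg_one_smul]) (by rw [e, mul_neg, e2, neg_one_smul])).1
      rw [← cj_coe, coe_emG, e, map_neg, map_neg] at this
      have h4 := this.smul (-1)
      rwa [neg_one_smul, neg_neg] at h4
  have hn : (μ - μ⁻¹) * (μ - 1) ≠ 0 := by
    refine mul_ne_zero (fun e => h1 ?_) fun e => h1 ?_
    · rw [pow_two]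
      nth_rewrite 2 [sub_eq_zero.mp e]
      exact mul_inv_cancel₀ h0
    · rw [sub_eq_zero.mp e, one_pow]
  have h5 : InA i (cj g (em i (rf B w w'))) := by
    have h6 := ((hA.sub ((Sc.one.smul μ⁻¹).inA i)).mul (hA.sub (Sc.one.inA i))).smul
      ((μ - μ⁻¹) * (μ - 1))⁻¹
    have h7 : (cj g (em i (hh B w w' μ)) - μ⁻¹ • (1 : EE 4 t F)) * (cj g (em i (hh B w w' μ)) - 1) =
        ((μ - μ⁻¹) * (μ - 1)) • cj g (em i (rf B w w')) := by
      rw [← map_smul, ← map_smul, ← hh_poly H P]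
      simp only [map_mul, map_sub, map_smul, map_one]
    rwa [h7, smul_smul, inv_mul_cancel₀ hn, one_smul] at h6
  obtain ⟨x, hx⟩ := h5
  obtain ⟨y, φ, hy, -, -, hm⟩ := maps_of_cj P.hw.1 (ph_ne_zero P.hw'.1) hx
  exact C.h1 g hg i hi w P.hw i y hy hm

theorem xi_rl (H : O4 B) (O : Ob B a b c d) (hab : B.f a a = B.f b b) {ε : F}
    (hε : ε = 1 ∨ ε = -1) :
    (ε • pj B c d + jj B a b) * (rl B a * rl B c) * (ε • pj B c d + jj B a b) =
      rl B a * rl B c := by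
  have h1 := O.aa
  have h2 := O.bb
  have h3 := O.cc
  have h4 := O.dd
  have ba : B.f b a = 0 := (H.sy _ _).trans O.ab
  have ca : B.f c a = 0 := (H.sy _ _).trans O.ac
  have da : B.f d a = 0 := (H.sy _ _).trans O.ad
  have cb : B.f c b = 0 := (H.sy _ _).trans O.bc
  have db : B.f d b = 0 := (H.sy _ _).trans O.bd
  have dc : B.f d c = 0 := (H.sy _ _).trans O.cd
  have xa : (ε • pj B c d + jj B a b) *ᵥ a = b := by
    simp [add_mulVec, smul_mulVec, O.pj_a, jj_mulVec, O.ab, h1]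
  have xb : (ε • pj B c d + jj B a b) *ᵥ b = -a := by
    simp [add_mulVec, smul_mulVec, O.pj_b, jj_mulVec, ba, hab, h2]
  have xc : (ε • pj B c d + jj B a b) *ᵥ c = ε • c := by
    simp [add_mulVec, smul_mulVec, O.pj_c, jj_mulVec, ca, cb]
  have xd : (ε • pj B c d + jj B a b) *ᵥ d = ε • d := by
    simp [add_mulVec, smul_mulVec, O.pj_d, jj_mulVec, da, db]
  have rr : ∀ e : Fin 4 → F, B.f e e ≠ 0 → rl B e *ᵥ e = -e := fun e he => by
    rw [rl_mulVec, div_mul_cancel₀ _ he]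
    module
  have ro : ∀ e x : Fin 4 → F, B.f x e = 0 → rl B e *ᵥ x = x := fun e x he => by
    rw [rl_mulVec, he, mul_zero, zero_smul, sub_zero]
  have ra : (rl B a * rl B c) *ᵥ a = -a := by rw [← mulVec_mulVec, ro c a O.ac, rr a h1]
  have rb : (rl B a * rl B c) *ᵥ b = b := by rw [← mulVec_mulVec, ro c b O.bc, ro a b ba]
  have rc : (rl B a * rl B c) *ᵥ c = -c := by
    rw [← mulVec_mulVec, rr c h3, mulVec_neg, ro a c ca]
  have rd : (rl B a * rl B c) *ᵥ d = d := by rw [← mulVec_mulVec, ro c d dc, ro a d da]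
  have ee : ε * ε = 1 := by rcases hε with rfl | rfl <;> ring
  generalize ε • pj B c d + jj B a b = X at *
  generalize rl B a * rl B c = Y at *
  apply O.mat <;>
    simp only [← mulVec_mulVec, xa, xb, xc, xd, ra, rb, rc, rd, mulVec_neg, mulVec_smul, neg_neg,
      smul_neg, smul_smul, ee, one_smul]

theorem cz_last (C : GC B G R) (K : KP B G R)
    (h : ∀ i ∈ R, ∀ ξ, Xi B ξ → ∀ g ∈ G, g * emG i ξ = emG i ξ * g → g ∈ TT 4 t F) :
    CZ B G R := by
  intro i hi ξ hξ g hg hc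
  have H : O4 B := C.f.toO4
  rcases cz_nx C K i hi ξ hξ g hg hc with e | e
  · exact h i hi ξ hξ g hg (mul_inv_eq_iff_eq_mul.mp e)
  obtain ⟨a, b, c, d, ε, O, hab, hε, h1, -⟩ := hξ.ex
  obtain ⟨r, hr, er⟩ := (C.f.rlI a O.aa).mul (C.f.rlI c O.cc)
  have h2 : ξ * r * ξ = r := Units.ext (by
    rw [Units.val_mul, Units.val_mul, er, h1]
    exact xi_rl H O hab hε)
  obtain ⟨n, hn, h3⟩ : ∃ n ∈ G0 B, ξ * n * ξ = n := by
    rcases C.f.so r hr (by rw [er, det_mul, det_rl O.aa, det_rl O.cc]; ring) with h | h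
    · exact ⟨r, h, h2⟩
    · exact ⟨-r, h, by rw [mul_neg, neg_mul, h2]⟩
  have h4 : emG i ξ * emG i n * emG i ξ = (emG i n : GG 4 t F) := by
    rw [← map_mul, ← map_mul, h3]
  have h5 := h i hi ξ hξ ((emG i n)⁻¹ * g) (G.mul_mem (G.inv_mem (C.mem i hi n hn)) hg) (by
    calc (emG i n)⁻¹ * g * emG i ξ = (emG i n)⁻¹ * (g * emG i ξ * g⁻¹) * g := by group
      _ = emG i ξ * ((emG i ξ * emG i n * emG i ξ)⁻¹ * g) := by rw [e]; group
      _ = _ := by rw [h4])
  have h6 : (emG i n : GG 4 t F) ∈ TT 4 t F := InA.mem_T (i := i) (by norm_num) ⟨n, coe_emG i n⟩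
  exact ((TT 4 t F).mul_mem_cancel_left ((TT 4 t F).inv_mem h6)).mp h5

theorem jobO4CZ : JobO4CZ.{u} := fun _ _ _ _ _ _ _ C K =>
  ⟨cz_nx C K, fun ⟨_, h0, h1⟩ => cz_big C K h0 h1, cz_last C K⟩

end H32.O4
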